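import Mathlib
import Cfsg.Agent.Lib.Helper55.OOG.Defs

/-!
# Project OOG (S2413), package [LEVI]: the Levi embedding `SL_m → O_{2m+1}`,
`g ↦ diag(1, g, g⁻ᵀ)`.
-/

set_option autoImplicit false
open scoped Matrix

namespace Cfsg.Agent.Lib.Helper88.OOG

open Cfsg.Agent.Lib.Helper55.OOG

universe u

section levi

variable {m : ℕ} {F : Type u} [Field F]

/-- the action of `diag(1, A, A⁻ᵀ)`. -/
theorem leviMat_mulVec (A : Matrix (Fin m) (Fin m) F) (x : Vec m F) :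
    leviMat A *ᵥ x = Sum.elim (x ∘ Sum.inl)
      (Sum.elim (A *ᵥ (x ∘ Sum.inr ∘ Sum.inl)) ((A⁻¹)ᵀ *ᵥ (x ∘ Sum.inr ∘ Sum.inr))) := by
  have hx : x = Sum.elim (x ∘ Sum.inl)
      (Sum.elim (x ∘ Sum.inr ∘ Sum.inl) (x ∘ Sum.inr ∘ Sum.inr)) := by
    funext k
    rcases k with k | k | k <;> rfl
  unfold leviMat
  conv_lhs => rw [hx, Matrix.fromBlocks_mulVec, Matrix.fromBlocks_mulVec]
  simp

/-- `diag(1, A, A⁻ᵀ)` preserves `Q`. -/
theorem leviMat_isom (A : Matrix (Fin m) (Fin m) F) (hA : A⁻¹ * A = 1) (x : Vec m F) :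
    Cfsg.quadFormOdd m F (leviMat A *ᵥ x) = Cfsg.quadFormOdd m F x := by
  have key : ∀ v : Vec m F, Cfsg.quadFormOdd m F v =
      v (Sum.inl ()) ^ 2 + (v ∘ Sum.inr ∘ Sum.inl) ⬝ᵥ (v ∘ Sum.inr ∘ Sum.inr) := fun v => rfl
  rw [key, key, leviMat_mulVec]
  have h1 : (Sum.elim (x ∘ Sum.inl) (Sum.elim (A *ᵥ (x ∘ Sum.inr ∘ Sum.inl))
      ((A⁻¹)ᵀ *ᵥ (x ∘ Sum.inr ∘ Sum.inr))) : Vec m F) ∘ Sum.inr ∘ Sum.inl =
      A *ᵥ (x ∘ Sum.inr ∘ Sum.inl) := rfl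
  have h2 : (Sum.elim (x ∘ Sum.inl) (Sum.elim (A *ᵥ (x ∘ Sum.inr ∘ Sum.inl))
      ((A⁻¹)ᵀ *ᵥ (x ∘ Sum.inr ∘ Sum.inr))) : Vec m F) ∘ Sum.inr ∘ Sum.inr =
      (A⁻¹)ᵀ *ᵥ (x ∘ Sum.inr ∘ Sum.inr) := rfl
  rw [h1, h2]
  simp only [Sum.elim_inl, Function.comp_apply]
  rw [Matrix.mulVec_transpose, dotProduct_comm, ← Matrix.dotProduct_mulVec, Matrix.mulVec_mulVec,
    hA, Matrix.one_mulVec, dotProduct_comm]

variable (m F)

/-- `A ↦ diag(1, A, A⁻ᵀ)` as a monoid homomorphism of matrices. -/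
noncomputable def leviMatHomO : Matrix (Fin m) (Fin m) F →*
    Matrix (Unit ⊕ (Fin m ⊕ Fin m)) (Unit ⊕ (Fin m ⊕ Fin m)) F where
  toFun A := leviMat A
  map_one' := by
    unfold leviMat
    simp [Matrix.fromBlocks_one]
  map_mul' A B := by
    unfold leviMat
    rw [Matrix.fromBlocks_multiply, Matrix.fromBlocks_multiply, Matrix.mul_inv_rev,
      Matrix.transpose_mul]
    simp

/-- `A ↦ diag(1, A, A⁻ᵀ)` on general linear groups. -/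
noncomputable def leviGLO : Matrix.GeneralLinearGroup (Fin m) F →*
    Matrix.GeneralLinearGroup (Unit ⊕ (Fin m ⊕ Fin m)) F :=
  Units.map (leviMatHomO m F)

theorem leviGLO_coe (A : Matrix.GeneralLinearGroup (Fin m) F) :
    ((leviGLO m F A : Matrix.GeneralLinearGroup (Unit ⊕ (Fin m ⊕ Fin m)) F) :
      Matrix (Unit ⊕ (Fin m ⊕ Fin m)) (Unit ⊕ (Fin m ⊕ Fin m)) F) =
      leviMat (A : Matrix (Fin m) (Fin m) F) := rfl

theorem leviGLO_mem (A : Matrix.GeneralLinearGroup (Fin m) F) :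
    leviGLO m F A ∈ Iso m F := by
  intro x _
  change Cfsg.quadFormOdd m F (((leviGLO m F A : Matrix.GeneralLinearGroup
    (Unit ⊕ (Fin m ⊕ Fin m)) F) : Matrix (Unit ⊕ (Fin m ⊕ Fin m)) (Unit ⊕ (Fin m ⊕ Fin m)) F)
      *ᵥ x) = Cfsg.quadFormOdd m F x
  rw [leviGLO_coe]
  exact leviMat_isom _ (Matrix.nonsing_inv_mul _ (Matrix.isUnits_det_units A)) x

/-- The Levi embedding `GL_m → O_{2m+1}`. -/
noncomputable def leviIsoO : Matrix.GeneralLinearGroup (Fin m) F →* ↥(Iso m F) :=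
  (leviGLO m F).codRestrict _ (leviGLO_mem m F)

/-- The Levi embedding `SL_m → O_{2m+1}`. -/
noncomputable def leviSLO : Matrix.SpecialLinearGroup (Fin m) F →* ↥(Iso m F) :=
  (leviIsoO m F).comp Matrix.SpecialLinearGroup.toGL

theorem leviSLO_isLevi : IsLevi (leviSLO m F) := by
  intro g
  rfl

end levi

/-- [LEVI] -/
theorem pkgLevi : PkgLevi.{u} := by
  intro m F _
  exact ⟨leviSLO m F, leviSLO_isLevi m F⟩

end Cfsg.Agent.Lib.Helper88.OOG
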